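import Cfsg.Agent.Push.PY
import Cfsg.Agent.Glaub.Qd
import Cfsg.Agent.Transfer.Focal

/-! Recognition of `Qd(q)` in the pushing-up situation. -/

namespace Cfsg.Agent.Push

open Subgroup Cfsg.Agent.LocalEven Cfsg.Agent.Glaub Cfsg.Agent.PLocal
open Cfsg.Agent.Classical.SL2Basic Cfsg.Agent.Classical.Borel2
open scoped MatrixGroups commutatorElement

universe u

variable {G G' : Type u} [Group G] [Group G'] {φ : G →* G'} {p f : ℕ} {F : Type*} [Field F]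
  {S L M T V A : Subgroup G}

theorem NatData.comm_inf {σ ψ} (d : NatData F ⊤ V (V ⊓ 𝐂⟮(⊤ : Subgroup G)⟯) σ ψ)
    (hV : IsElementaryAbelian p V) (h2 : Odd p) (hk : ∀ g, σ g = 1 → (g : G) ∈ 𝐂⟮V⟯)
    {t : (⊤ : Subgroup G)} (ht : σ t = -1) : ⁅V, (⊤ : Subgroup G)⁆ ⊓ 𝐂⟮(⊤ : Subgroup G)⟯ = ⊥ := by
  have c := elemAb_le_centralizer hV
  have n : ∀ g : G, ∀ v ∈ V, g * v * g⁻¹ ∈ V := fun g v => conj_mem_of_mem_normalizer (d.norm trivial)
  let N : Subgroup G :=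
    { carrier := {v | v ∈ V ∧ t * v * (t : G)⁻¹ = v⁻¹}
      mul_mem' := fun {a b} ha hb => ⟨mul_mem ha.1 hb.1, by
        rw [← c ha.1 b hb.1, mul_inv_rev, ← ha.2, ← hb.2, conj_mul, c ha.1 b hb.1]⟩
      one_mem' := ⟨one_mem _, by simp⟩
      inv_mem' := fun {a} ha => ⟨inv_mem ha.1, by rw [← conj_inv, ha.2]⟩ }
  have l : ⁅V, (⊤ : Subgroup G)⁆ ≤ N := commutator_le.2 fun v hv g _ => by
    refine ⟨comm_le_left d.norm (commutator_mem_commutator hv trivial), ?_⟩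
    have b := (d.ker _ (mul_mem hv (n t v hv))).1 (by
      rw [d.mul _ hv _ (n t v hv), d.conj t v hv, ht]; simp [Matrix.neg_mulVec])
    have k := hk (t⁻¹ * ⟨g⁻¹, trivial⟩ * t * ⟨g, trivial⟩) (by
      rw [map_mul, map_mul, map_mul, map_inv, ht, show (⟨g⁻¹, trivial⟩ : (⊤ : Subgroup G)) =
        ⟨g, trivial⟩⁻¹ from rfl, map_inv]; simp) v hv
    have e1 := b.2 g trivial
    simp only [coe_mul, coe_inv] at k
    have e4 : t * (g * v * g⁻¹) * (t : G)⁻¹ = g * (t * v * (t : G)⁻¹) * g⁻¹ := by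
      rw [show t * (g * v * g⁻¹) * (t : G)⁻¹ = g * (t * ((t : G)⁻¹ * g⁻¹ * t * g * v) *
        ((t : G)⁻¹ * g⁻¹ * t * g)⁻¹ * (t : G)⁻¹) * g⁻¹ by group, ← k]; group
    rw [show t * ⁅v, g⁆ * (t : G)⁻¹ = t * v * (t : G)⁻¹ * (t * (g * v * g⁻¹) * (t : G)⁻¹)⁻¹ by
      simp only [commutatorElement_def]; group, e4, mul_inv_eq_iff_eq_mul, commutatorElement_inv,
      commutatorElement_def, c (inv_mem hv) _ (n g v hv),
      show ∀ w, v⁻¹ * (g * v * g⁻¹) * (g * w * g⁻¹) = v⁻¹ * (g * (v * w)) * g⁻¹ by intros; group, e1]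
    group
  refine eq_bot_iff.2 fun x hx => ?_
  have e := (l hx.1).2
  rw [hx.2 t trivial, mul_inv_cancel_right] at e
  obtain ⟨k, rfl⟩ := h2
  have := hV.2 x (l hx.1).1
  rwa [pow_succ, pow_mul, sq, eq_inv_iff_mul_eq_one.1 e, one_pow, one_mul] at this

theorem NC.nd (hf : Function.Injective φ) (nc : NC (S.map φ) (map φ ⊤)) : ND S := fun W h0 hc hn => by
  have e : (W.map (S.equivMapOfInjective φ hf).toMonoidHom).map (S.map φ).subtype =
      (W.map S.subtype).map φ := by rw [map_map, map_map]; rfl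
  have := Transfer.characteristic_map_mulEquiv hc (S.equivMapOfInjective φ hf)
  exact h0 ((map_eq_bot_iff_of_injective _ S.subtype_injective).1 ((map_eq_bot_iff_of_injective _ hf).1
    (nc _ (map_mono (map_subtype_le _)) (e ▸ normalizer_le_normalizer_map_subtype _)
      ((map_mono le_normalizer_of_normal).trans (le_normalizer_map φ)))))

variable [Finite G] [hp : Fact p.Prime]

theorem PN.qd (h : PN p S ⊤ M V V) (hk : ⊤ ⊓ centMod V (V ⊓ 𝐂⟮(⊤ : Subgroup G)⟯) ≤ V)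
    (hS : ⁅S, S⁆ ≤ ⁅V, S⁆) (h5 : 5 ≤ p) (F : Type) [Field F] [Fintype F] [CharP F p]
    (hF : Fintype.card F = V.relIndex S) :
    commutator G ⊓ (V ⊓ 𝐂⟮(⊤ : Subgroup G)⟯) = ⊥ ∧ commutator G ⊔ (V ⊓ 𝐂⟮(⊤ : Subgroup G)⟯) = ⊤ ∧
      Nonempty (commutator G ≃* qdC F) := by
  have := normal_of_top_le h.nrm
  have nZ := normal_of_top_le h.nZ
  have h2 : p ≠ 2 := by omega
  have n2 : (2 : F) ≠ 0 := two_ne_zero_of_char h2
  obtain ⟨σ, ψ, d, s, -⟩ := h.nat.nat F (hF.trans h.idxS.symm)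
  obtain ⟨ρ, r1, r2, r3⟩ := h.quot hk d s
  obtain ⟨t, ht⟩ := s (-1)
  have a := d.comm_inf h.ea (hp.1.odd_of_ne_two h2) (fun g hg => h.cen (r2.le ((r3 g).trans hg))) ht
  have e1 : commutator G ⊓ (V ⊓ 𝐂⟮(⊤ : Subgroup G)⟯) = ⊥ := by
    refine le_bot_iff.1 (le_trans (le_inf (le_trans (le_inf (le_inf (inf_le_right.trans
      (inf_le_left.trans h.VS)) inf_le_left) (inf_le_right.trans ((inf_le_inf_right _ le_top).trans
        z_le_center))) ((Transfer.inf_commutator_inf_center_le h.syl.toSylowTop.card_coprime_index).trans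
      (hS.trans (commutator_mono le_rfl le_top)))) (inf_le_right.trans inf_le_right)) a.le)
  have e2 : commutator G ⊔ (V ⊓ 𝐂⟮(⊤ : Subgroup G)⟯) = ⊤ := by
    have p1 : commutator SL(2, F) = ⊤ := Matrix.SL2.commutator_eq_top n2 fun e => by
      have := (CharP.cast_eq_zero_iff F p 3).1 (by push_cast; linear_combination e)
      have := Nat.le_of_dvd (by norm_num) this
      omega
    have p2 : (commutator G).map ρ = ⊤ := by
      rw [commutator_def, map_commutator, map_top_of_surjective _ r1]; exact p1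
    have p3 := congrArg (comap ρ) p2
    rw [comap_map_eq, r2, comap_top] at p3
    exact top_le_iff.1 (p3.ge.trans (sup_le le_sup_left ((d.irr' s le_normalizer_of_normal
      (commutator_le_left _ _) (d.chief s nZ).2).trans (sup_le_sup_right
        (commutator_mono le_top le_rfl) _))))
  have m : ∀ g : G, g * t * g⁻¹ * (t : G)⁻¹ ∈ V := fun g => r2.le (by
    rw [MonoidHom.mem_ker, map_mul, map_mul, map_mul, map_inv, map_inv, r3 t, ht]; simp)
  have cv : ∀ v ∈ V, ψ (v * t * v⁻¹ * (t : G)⁻¹) = (2 : F) • ψ v := fun v hv => by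
    rw [show v * t * v⁻¹ * (t : G)⁻¹ = v * (t * v⁻¹ * (t : G)⁻¹) by group, d.mul _ hv _
      (conj_mem_of_mem_normalizer (h.nrm trivial) (inv_mem hv)), d.conj t _ (inv_mem hv), ht, d.inv hv]
    simp [Matrix.neg_mulVec, Matrix.mulVec_neg, two_smul]
  let θ : G →* qdC F := MonoidHom.mk' (fun g => qa (ψ (g * t * g⁻¹ * (t : G)⁻¹)) (ρ g)) fun g k => by
    rw [qa_mul, map_mul, r3 g, ← d.conj ⟨g, trivial⟩ _ (m k), add_comm, ← d.mul _
      (conj_mem_of_mem_normalizer (h.nrm trivial) (m k)) _ (m g)]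
    congr 2; group
  have k1 : θ.ker ≤ V ⊓ 𝐂⟮(⊤ : Subgroup G)⟯ := fun g hg => by
    obtain ⟨a, b⟩ := qa_eq_one.1 hg
    have hv := r2.le b
    exact (d.ker g hv).1 ((smul_eq_zero.1 ((cv g hv).symm.trans a)).resolve_left n2)
  have k2 : V ⊓ 𝐂⟮(⊤ : Subgroup G)⟯ ≤ θ.ker := fun g hg =>
    qa_eq_one.2 ⟨by rw [cv g hg.1, (d.ker g hg.1).2 hg, smul_zero], r2.ge hg.1⟩
  refine ⟨e1, e2, ⟨MulEquiv.ofBijective (θ.comp (commutator G).subtype) ⟨(injective_iff_map_eq_one _).2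
    fun g hg => Subtype.ext (e1.le ⟨g.2, k1 hg⟩), fun y => ?_⟩⟩⟩
  obtain ⟨x, s, rfl⟩ := exists_qa y
  obtain ⟨g, rfl⟩ := r1 s
  obtain ⟨v, hv, ev⟩ := d.surj ((2 : F)⁻¹ • (x - ψ (g * t * g⁻¹ * (t : G)⁻¹)))
  obtain ⟨a, ha, b, hb, e⟩ := (mem_sup_iff_of_le_normalizer le_normalizer_of_normal).1
    (e2.ge (mem_top (v * g)))
  refine ⟨⟨a, ha⟩, (mul_one _).symm.trans ((congrArg _ (k2 hb).symm).trans
    ((map_mul θ a b).symm.trans ?_))⟩
  rw [e, map_mul]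
  change qa _ _ * qa _ _ = _
  rw [qa_mul, cv v hv, ev, show ρ v = 1 from r2.ge hv, smul_smul, mul_inv_cancel₀ n2]
  simp

end Cfsg.Agent.Push
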